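import Cfsg.Agent.Lib.Helper17.E6I.DefsE
import Cfsg.Agent.Lib.Helper50.E6I.N1

set_option autoImplicit false

/-! Piece N2 of the farm E6I (helper17, S2175): a monomial element mapping `lp S7 c` to `lp S7 c'`
maps the support onto the support. -/

namespace Cfsg.Agent.Lib.Helper50.E6I

open Cfsg.Lie Cfsg.Agent.Lib.Helper18 Cfsg.Agent.Lib.Helper17 Cfsg.Agent.Lib.Helper36
  Cfsg.Agent.Lib.Helper6 Matrix Cfsg.Agent.Lib.Helper17.E6I

variable {F : Type*} [Field F] (hB : Base chevE6 F)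

/-- Weyl words keeping `S7` positive and separating it from the other roots -/
def N2_Ls : List (List ℕ) :=
  [[], [0], [1], [2], [3], [4], [5], [2, 0], [3, 1], [3, 2], [4, 3], [5, 4], [3, 2, 0], [3, 2, 1],
    [4, 3, 1], [4, 3, 2], [5, 4, 3], [3, 2, 1, 0], [4, 3, 2, 0], [4, 3, 2, 1], [5, 4, 3, 1],
    [5, 4, 3, 2], [4, 3, 2, 1, 0], [5, 4, 3, 2, 0], [5, 4, 3, 2, 1], [4, 3, 2, 1, 3],
    [5, 4, 3, 2, 1, 0], [4, 3, 2, 1, 3, 0], [5, 4, 3, 2, 1, 3]]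

theorem N2_tabA : ∀ L ∈ N2_Ls, (∀ i ∈ L, i < chevE6.rank) ∧
    ∀ s ∈ S7, chevE6.IsPosRoot (wAct chevE6 L s) := by
  decide +kernel

theorem N2_tabB : ∀ r : Fin 72, (∀ L ∈ N2_Ls, chevE6.IsPosRoot (wAct chevE6 L r)) → r.val ∈ S7 := by
  decide +kernel

theorem N2_S7_pos : ∀ r ∈ S7, chevE6.IsPosRoot r := by
  decide +kernel

/-- the subgroup of the products supported on a set of roots -/
def N2_Sg (T : ℕ → Prop) : Subgroup (GL chevE6.Idx F) where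
  carrier := {g | ∃ d : ℕ → F, (∀ s, d s ≠ 0 → T s) ∧ g = CG.lp hB S7 d}
  mul_mem' := by
    rintro _ _ ⟨d, hd, rfl⟩ ⟨d', hd', rfl⟩
    refine ⟨fun s => d s + d' s, ?_, N1_lp_mul hB (N1_PC hB) d d'⟩
    intro s hs
    by_cases h : d s = 0
    · apply hd'
      intro h'
      exact hs (by show d s + d' s = 0; rw [h, h', add_zero])
    · exact hd s h
  one_mem' := ⟨fun _ => 0, fun s hs => absurd rfl hs, (CG.lp_zero hB S7).symm⟩
  inv_mem' := by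
    rintro _ ⟨d, hd, rfl⟩
    refine ⟨fun s => - d s, fun s hs => hd s (fun h => hs (by show - d s = 0; rw [h, neg_zero])), ?_⟩
    rw [inv_eq_iff_mul_eq_one, N1_lp_mul hB (N1_PC hB)]
    simp only [add_neg_cancel]
    exact CG.lp_zero hB S7

theorem supp_S7 {n : GL chevE6.Idx F} {π : ℕ → ℕ} (hn : CG.GAct hB n π) {c c' : ℕ → F}
    (h : n * CG.lp hB S7 c * n⁻¹ = CG.lp hB S7 c') :
    ∀ s' ∈ S7, c' s' ≠ 0 → ∃ s ∈ S7, c s ≠ 0 ∧ π s = s' := by
  have hsort : S7.Pairwise (· < ·) := by decide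
  have h1 : ∀ s ∈ S7, c s ≠ 0 → π s ∈ S7 := by
    intro s hs hcs
    have hlt : π s < 72 := (hn s (N2_S7_pos s hs).1).1
    apply N2_tabB ⟨π s, hlt⟩
    intro L hL
    exact CG.pos_of_word hB (by simp) hn N2_S7_pos hsort (N1_PC hB) h (N2_tabA L hL).1
      (N2_tabA L hL).2 s hs hcs
  have h2 : n * CG.lp hB S7 c * n⁻¹ ∈ N2_Sg hB (fun s' => ∃ s ∈ S7, c s ≠ 0 ∧ π s = s') := by
    apply CG.lp_conj_mem hB hn _ (fun s hs => (N2_S7_pos s hs).1)
    intro s hs hcs t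
    refine ⟨CG.upd (fun _ => 0) (π s) t, ?_, ?_⟩
    · intro x hx
      by_cases hxs : x = π s
      · exact ⟨s, hs, hcs, hxs.symm⟩
      · simp [CG.upd, hxs] at hx
    · rw [← CG.lp_mul_single hB (by decide) (h1 s hs hcs)
        (fun x hx e u => N1_PC hB _ (h1 s hs hcs) x hx e u), CG.lp_zero, one_mul]
  obtain ⟨d, hd, e⟩ := h2
  rw [h] at e
  intro s' hs' hc'
  apply hd
  rw [← CG.lp_inj hB (by simp) N2_S7_pos hsort e s' hs']
  exact hc'

end Cfsg.Agent.Lib.Helper50.E6I
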